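import Mathlib
import Cfsg.Agent.Lib.UnipotentGL.Orbits

/-!
# The index of a standard parabolic subgroup of the general linear group
-/

set_option autoImplicit false

namespace Cfsg.Agent.UnipotentGL

open Matrix

variable {F : Type*} [Field F] {n : ℕ} {μ : Fin n → ℕ}

/-- Positions strictly above the blocks. -/
abbrev Above (hμ : ∑ i, μ i = n) : Type := {p : Fin n × Fin n // lab hμ p.1 < lab hμ p.2}

/-- The parabolic as blocks and entries above. -/
noncomputable def parabolicEquiv (hμ : ∑ i, μ i = n) :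
    parabolicGL n F μ ≃
      (∀ a : Fin n, GL {i : Fin n // lab hμ i = a} F) × (Above hμ → F) := by
  classical
  refine Equiv.ofBijective (fun g => (fun a => Matrix.GeneralLinearGroup.mkOfDetNeZero
      ((g.1 : Matrix (Fin n) (Fin n) F).toSquareBlock (lab hμ) a) ?_,
    fun p => (g.1 : Matrix (Fin n) (Fin n) F) p.1.1 p.1.2)) ⟨?_, ?_⟩
  · have hb : (g.1 : Matrix (Fin n) (Fin n) F).BlockTriangular (lab hμ) := fun i j h => g.2 h
    have hdet := hb.det_fintype
    have hu := Matrix.isUnits_det_units g.1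
    rw [hdet] at hu
    exact Finset.prod_ne_zero_iff.1 hu.ne_zero a (Finset.mem_univ a)
  · intro g g' h
    obtain ⟨h1, h2⟩ := Prod.ext_iff.1 h
    refine Subtype.ext (Units.ext (Matrix.ext fun i j => ?_))
    rcases lt_trichotomy (lab hμ i) (lab hμ j) with hl | hl | hl
    · exact congrFun h2 ⟨(i, j), hl⟩
    · have := congrArg (fun M : GL {x : Fin n // lab hμ x = lab hμ j} F =>
        (M : Matrix {x : Fin n // lab hμ x = lab hμ j} {x : Fin n // lab hμ x = lab hμ j} F) ⟨i, hl⟩ ⟨j, rfl⟩) (congrFun h1 (lab hμ j))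
      exact this
    · exact (g.2 hl).trans (g'.2 hl).symm
  · rintro ⟨B, f⟩
    let M : Matrix (Fin n) (Fin n) F := Matrix.of fun i j =>
      if h : lab hμ i < lab hμ j then f ⟨(i, j), h⟩
      else if h' : lab hμ i = lab hμ j then (B (lab hμ j) : Matrix {x : Fin n // lab hμ x = lab hμ j} {x : Fin n // lab hμ x = lab hμ j} F) ⟨i, h'⟩ ⟨j, rfl⟩ else 0
    have hb : M.BlockTriangular (lab hμ) := fun i j h => by
      simp only [M, Matrix.of_apply]
      rw [dif_neg (not_lt.2 h.le), dif_neg h.ne']
    have hblock : ∀ a, M.toSquareBlock (lab hμ) a = (B a : Matrix {x : Fin n // lab hμ x = a} {x : Fin n // lab hμ x = a} F) := by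
      intro a
      ext ⟨i, hi⟩ ⟨j, hj⟩
      subst hj
      simp only [M, Matrix.toSquareBlock_def, Matrix.of_apply]
      rw [dif_neg (not_lt.2 hi.ge), dif_pos hi]
    have hdet : M.det ≠ 0 := by
      rw [hb.det_fintype]
      exact Finset.prod_ne_zero_iff.2 fun a _ => by
        rw [hblock a]; exact (Matrix.isUnits_det_units (B a)).ne_zero
    refine ⟨⟨Matrix.GeneralLinearGroup.mkOfDetNeZero M hdet, fun i j h => hb h⟩, Prod.ext ?_ ?_⟩
    · funext a
      exact Units.ext (hblock a)
    · funext p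
      show M p.1.1 p.1.2 = _
      simp only [M, Matrix.of_apply]
      rw [dif_pos p.2]

/-- The `q`-factorial. -/
def qFact (q n : ℕ) : ℕ := ∏ j ∈ Finset.range n, ∑ l ∈ Finset.range (j + 1), q ^ l

theorem qFact_pos {q : ℕ} (hq : 0 < q) (n : ℕ) : 0 < qFact q n :=
  Finset.prod_pos fun j _ => lt_of_lt_of_le (by simp)
    (Finset.single_le_sum (f := fun l => q ^ l) (fun _ _ => Nat.zero_le _)
      (Finset.mem_range.2 (Nat.succ_pos j)))

theorem card_GL_qFact [Fintype F] {q : ℕ} (hq : Fintype.card F = q) (m : ℕ) :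
    Nat.card (GL (Fin m) F) = q ^ (∑ i ∈ Finset.range m, i) * (q - 1) ^ m * qFact q m := by
  rw [Matrix.card_GL_field, hq, Fin.prod_univ_eq_prod_range (fun i => q ^ m - q ^ i) m]
  have hgeom : ∀ j : ℕ, q ^ j - 1 = (q - 1) * ∑ l ∈ Finset.range j, q ^ l := fun j => by
    have h1 : 1 < q := hq ▸ Fintype.one_lt_card
    obtain ⟨r, rfl⟩ : ∃ r, q = r + 1 := ⟨q - 1, by omega⟩
    rw [Nat.add_sub_cancel]
    have := geom_sum_mul_add r j
    rw [← this, Nat.add_sub_cancel, mul_comm]
  rw [Finset.prod_congr rfl (g := fun i => q ^ i * ((q - 1) * ∑ l ∈ Finset.range (m - i), q ^ l))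
    fun i hi => by
      rw [← hgeom, Nat.mul_sub, mul_one, ← pow_add, Nat.add_sub_cancel' (Finset.mem_range.1 hi).le],
    Finset.prod_mul_distrib, Finset.prod_mul_distrib, Finset.prod_pow_eq_pow_sum, Finset.prod_const,
    Finset.card_range, mul_assoc]
  congr 2
  rw [qFact, ← Finset.prod_range_reflect (fun i => ∑ l ∈ Finset.range (m - i), q ^ l) m]
  refine Finset.prod_congr rfl fun j hj => ?_
  rw [show m - (m - 1 - j) = j + 1 by have := Finset.mem_range.1 hj; omega]

theorem two_mul_sum_range (m : ℕ) : 2 * (∑ i ∈ Finset.range m, i) + m = m * m := by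
  induction m with
  | zero => rfl
  | succ m ih => rw [Finset.sum_range_succ]; nlinarith

/-- **Index of a parabolic subgroup.** -/
theorem index_mul [Fintype F] {q : ℕ} (hq : Fintype.card F = q) (hμ : ∑ i, μ i = n) :
    Nat.card (GL (Fin n) F ⧸ parabolicGL n F μ) * ∏ i, qFact q (μ i) = qFact q n := by
  classical
  have h1q : 1 < q := hq ▸ Fintype.one_lt_card
  have hP : Nat.card (parabolicGL n F μ) =
      (∏ a, (q ^ (∑ i ∈ Finset.range (μ a), i) * (q - 1) ^ μ a * qFact q (μ a))) *
        q ^ Fintype.card (Above hμ) := by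
    rw [Nat.card_congr (parabolicEquiv hμ), Nat.card_prod, Nat.card_pi, Nat.card_fun,
      Nat.card_eq_fintype_card (α := F), hq, Nat.card_eq_fintype_card (α := Above hμ)]
    congr 1
    refine Finset.prod_congr rfl fun a _ => ?_
    rw [← card_GL_qFact hq]
    refine Nat.card_congr (Units.mapEquiv (Matrix.reindexAlgEquiv F F ?_).toMulEquiv).toEquiv
    exact Fintype.equivFinOfCardEq (by rw [Fintype.card_subtype, card_lab_fiber hμ a])
  have hsq : (Finset.univ.filter fun p : Fin n × Fin n => lab hμ p.1 = lab hμ p.2).card =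
      ∑ a, μ a * μ a := by
    rw [Finset.card_eq_sum_card_fiberwise (f := fun p => lab hμ p.1) (t := Finset.univ) (by simp)]
    refine Finset.sum_congr rfl fun a _ => ?_
    rw [← card_lab_fiber hμ a, ← Finset.card_product]
    congr 1
    ext p
    simp only [Finset.mem_filter, Finset.mem_univ, true_and, Finset.mem_product]
    constructor
    · rintro ⟨h1, h2⟩; exact ⟨h2, h1 ▸ h2⟩
    · rintro ⟨h1, h2⟩; exact ⟨h1.trans h2.symm, h1⟩
  have hswap : Fintype.card (Above hμ) =
      (Finset.univ.filter fun p : Fin n × Fin n => lab hμ p.2 < lab hμ p.1).card := by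
    rw [Fintype.card_subtype]
    exact Finset.card_equiv (Equiv.prodComm _ _) (by simp)
  have htot : n * n = 2 * Fintype.card (Above hμ) + ∑ a, μ a * μ a := by
    have := Finset.card_univ (α := Fin n × Fin n)
    rw [Fintype.card_prod, Fintype.card_fin] at this
    rw [← hsq, two_mul]
    nth_rewrite 2 [hswap]
    rw [Fintype.card_subtype, ← this, Finset.card_filter, Finset.card_filter, Finset.card_filter,
      ← Finset.sum_add_distrib, ← Finset.sum_add_distrib, Finset.card_eq_sum_ones]
    refine Finset.sum_congr rfl fun p _ => ?_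
    rcases lt_trichotomy (lab hμ p.1) (lab hμ p.2) with h | h | h
    · simp [h, h.ne, not_lt.2 h.le]
    · simp [h]
    · simp [h, h.ne', not_lt.2 h.le]
  have hexp : ∑ i ∈ Finset.range n, i =
      (∑ a, ∑ i ∈ Finset.range (μ a), i) + Fintype.card (Above hμ) := by
    have h1 := two_mul_sum_range n
    have h2 : 2 * (∑ a, ∑ i ∈ Finset.range (μ a), i) + n = ∑ a, μ a * μ a := by
      conv_lhs => arg 2; rw [← hμ]
      rw [Finset.mul_sum, ← Finset.sum_add_distrib]
      exact Finset.sum_congr rfl fun a _ => two_mul_sum_range _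
    omega
  have hcard := Subgroup.card_eq_card_quotient_mul_card_subgroup (parabolicGL n F μ)
  rw [hP, card_GL_qFact hq, Finset.prod_mul_distrib, Finset.prod_mul_distrib,
    Finset.prod_pow_eq_pow_sum, Finset.prod_pow_eq_pow_sum, hμ, hexp, pow_add] at hcard
  have hpos : 0 < q ^ (∑ a, ∑ i ∈ Finset.range (μ a), i) * q ^ Fintype.card (Above hμ) * (q - 1) ^ n :=
    Nat.mul_pos (Nat.mul_pos (pow_pos (by omega) _) (pow_pos (by omega) _)) (pow_pos (by omega) _)
  refine (Nat.eq_of_mul_eq_mul_left hpos ?_).symm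
  rw [hcard]; ring

end Cfsg.Agent.UnipotentGL
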