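import Mathlib
import Cfsg.Agent.Lib.UnipotentGL.CyclicFlags

/-!
# Partition-indexed characters of the general linear group are distinct

Values at cyclic matrices with square free or prescribed factor degrees separate the permutation
characters on partial flags, and a strict rearrangement inequality makes the alternating sums
triangular.
-/

set_option autoImplicit false

open Polynomial UniqueFactorizationMonoid

namespace Cfsg.Agent.UnipotentGL

variable {F : Type*} [Field F] {n : ℕ}

/-- The non-zero parts of a composition. -/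
def parts (μ : Fin n → ℕ) : Multiset ℕ := (Multiset.ofList (List.ofFn μ)).filter (0 < ·)

/-- All parts of a composition. -/
def allParts (μ : Fin n → ℕ) : Multiset ℕ := Multiset.ofList (List.ofFn μ)

theorem allParts_eq_map (μ : Fin n → ℕ) : allParts μ = Finset.univ.val.map μ := by
  rw [allParts, List.ofFn_eq_map, ← Multiset.map_coe]
  rfl

theorem parts_eq_sum (μ : Fin n → ℕ) :
    parts μ = ∑ i, if μ i = 0 then (0 : Multiset ℕ) else {μ i} := by
  show (allParts μ).filter _ = _
  rw [allParts_eq_map, Finset.sum_eq_multiset_sum]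
  induction (Finset.univ : Finset (Fin n)).val using Multiset.induction with
  | empty => simp
  | cons a s ih =>
    rw [Multiset.map_cons, Multiset.map_cons, Multiset.sum_cons, Multiset.filter_cons, ih]
    by_cases h : μ a = 0
    · simp [h]
    · simp [h, Nat.pos_of_ne_zero h]

theorem allParts_eq (μ : Fin n → ℕ) :
    allParts μ = parts μ + Multiset.replicate (n - (parts μ).card) 0 := by
  have hsplit := Multiset.filter_add_not (fun x : ℕ => 0 < x) (allParts μ)
  have hz : (allParts μ).filter (fun x : ℕ => ¬ 0 < x) =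
      Multiset.replicate ((allParts μ).filter (fun x : ℕ => ¬ 0 < x)).card 0 :=
    Multiset.eq_replicate_card.2 fun x hx => by simp at hx; omega
  have hc := congrArg Multiset.card hsplit
  rw [Multiset.card_add] at hc
  have hn : (allParts μ).card = n := by simp [allParts]
  conv_lhs => rw [← hsplit, hz]
  congr 2
  simp only [parts, allParts] at hc hn ⊢
  omega

theorem exists_perm_of_parts_eq {μ μ' : Fin n → ℕ} (h : parts μ = parts μ') :
    ∃ σ : Equiv.Perm (Fin n), μ ∘ σ = μ' := by
  have hp : (List.ofFn μ).Perm (List.ofFn μ') := by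
    rw [← Multiset.coe_eq_coe]
    show allParts μ = allParts μ'
    rw [allParts_eq, allParts_eq μ', h]
  have h1 : List.ofFn (μ ∘ Tuple.sort μ) = List.ofFn (μ' ∘ Tuple.sort μ') := by
    refine List.Perm.eq_of_pairwise' (r := fun a b : ℕ => a ≤ b) ?_ ?_
      (((Equiv.Perm.ofFn_comp_perm _ μ).trans hp).trans (Equiv.Perm.ofFn_comp_perm _ μ').symm)
    · exact List.pairwise_ofFn.2 fun i j hij => Tuple.monotone_sort μ hij.le
    · exact List.pairwise_ofFn.2 fun i j hij => Tuple.monotone_sort μ' hij.le
  have h2 : μ ∘ Tuple.sort μ = μ' ∘ Tuple.sort μ' := List.ofFn_inj.1 h1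
  refine ⟨(Tuple.sort μ').symm.trans (Tuple.sort μ), funext fun i => ?_⟩
  have := congrFun h2 ((Tuple.sort μ').symm i)
  simpa using this

theorem eq_of_monotone_parts_eq {μ μ' : Fin n → ℕ} (hm : Monotone μ) (hm' : Monotone μ')
    (h : parts μ = parts μ') : μ = μ' := by
  obtain ⟨σ, rfl⟩ := exists_perm_of_parts_eq h
  exact Tuple.unique_monotone (f := μ) (σ := 1) (τ := σ) hm hm'

theorem sq_sum_eq_of_parts_eq {μ μ' : Fin n → ℕ} (h : parts μ = parts μ') :
    ∑ i, ((μ i : ℤ)) ^ 2 = ∑ i, ((μ' i : ℤ)) ^ 2 := by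
  obtain ⟨σ, rfl⟩ := exists_perm_of_parts_eq h
  exact (Equiv.sum_comp σ fun i => ((μ i : ℤ)) ^ 2).symm

/-- Permuting the degrees does not change the tuples. -/
def tupPerm (P : F[X]) (μ : Fin n → ℕ) (σ : Equiv.Perm (Fin n)) : Tup P μ ≃ Tup P (μ ∘ σ) :=
  (Equiv.arrowCongr σ.symm (Equiv.refl F[X])).subtypeEquiv fun f => by
    simp only [Equiv.arrowCongr_apply, Equiv.coe_refl, Equiv.symm_symm, Function.comp_apply, id]
    rw [Equiv.prod_comp σ f]
    constructor
    · rintro ⟨a, b, c⟩; exact ⟨fun i => a _, fun i => b _, c⟩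
    · rintro ⟨a, b, c⟩
      refine ⟨fun i => ?_, fun i => ?_, c⟩
      · simpa using a (σ.symm i)
      · simpa using b (σ.symm i)

theorem card_tup_of_parts_eq (P : F[X]) {μ μ' : Fin n → ℕ} (h : parts μ = parts μ') :
    Nat.card (Tup P μ) = Nat.card (Tup P μ') := by
  obtain ⟨σ, rfl⟩ := exists_perm_of_parts_eq h
  exact Nat.card_congr (tupPerm P μ σ)

theorem finite_tup {P : F[X]} (hP : P ≠ 0) (μ : Fin n → ℕ) : Finite (Tup P μ) := by
  have : Fintype {g : F[X] // g.Monic ∧ g ∣ P} := fintypeSubtypeMonicDvd P hP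
  refine Finite.of_injective (β := Fin n → {g : F[X] // g.Monic ∧ g ∣ P})
    (fun f i => ⟨f.1 i, f.2.1 i, (Finset.dvd_prod_of_mem f.1 (Finset.mem_univ i)).trans f.2.2.2.dvd⟩) ?_
  intro f g h
  exact Subtype.ext (funext fun i => congrArg Subtype.val (congrFun h i))

open Classical in
/-- Degrees of the monic irreducible factors. -/
noncomputable def facDeg (f : F[X]) : Multiset ℕ := (normalizedFactors f).map natDegree

open Classical in
theorem facDeg_prod {ι : Type*} (s : Finset ι) (f : ι → F[X]) (h : ∀ i ∈ s, f i ≠ 0) :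
    facDeg (∏ i ∈ s, f i) = ∑ i ∈ s, facDeg (f i) := by
  induction s using Finset.induction with
  | empty => simp [facDeg]
  | insert a s ha ih =>
    rw [Finset.prod_insert ha, Finset.sum_insert ha, ← ih fun i hi => h i (Finset.mem_insert_of_mem hi)]
    unfold facDeg
    rw [normalizedFactors_mul (h a (Finset.mem_insert_self a s))
      (Finset.prod_ne_zero_iff.2 fun i hi => h i (Finset.mem_insert_of_mem hi)), Multiset.map_add]

open Classical in
theorem facDeg_of_irreducible {p : F[X]} (hp : Irreducible p) (hm : p.Monic) :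
    facDeg p = {p.natDegree} := by
  rw [facDeg, normalizedFactors_irreducible hp, hm.normalize_eq_self, Multiset.map_singleton]

open Classical in
theorem sum_facDeg {f : F[X]} (h : f ≠ 0) : (facDeg f).sum = f.natDegree := by
  have ha := natDegree_eq_of_degree_eq (degree_eq_degree_of_associated (prod_normalizedFactors h))
  rw [facDeg, ← ha, natDegree_multiset_prod _ (zero_notMem_normalizedFactors _)]

theorem parts_eq_of_tup {P : F[X]} {μ : Fin n → ℕ} (f : Tup P μ)
    (hle : (facDeg P).card ≤ (parts μ).card) : parts μ = facDeg P := by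
  have hP : facDeg P = ∑ i, facDeg (f.1 i) := by
    have e := congrArg facDeg f.2.2.2
    rw [facDeg_prod _ _ fun i _ => (f.2.1 i).ne_zero] at e
    exact e.symm
  have hs : ∀ i, (facDeg (f.1 i)).sum = μ i := fun i => by
    rw [sum_facDeg (f.2.1 i).ne_zero, f.2.2.1]
  set ind : Fin n → Multiset ℕ := fun i => if μ i = 0 then 0 else {μ i} with hind
  have hpa : parts μ = ∑ i, ind i := parts_eq_sum μ
  have h1 : ∀ i, (ind i).card ≤ (facDeg (f.1 i)).card := by
    intro i
    by_cases h : μ i = 0
    · simp [hind, h]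
    · simp only [hind, if_neg h, Multiset.card_singleton]
      refine Multiset.card_pos.2 fun he => h ?_
      rw [← hs i, he, Multiset.sum_zero]
  have h2 : ∀ i ∈ Finset.univ, (ind i).card = (facDeg (f.1 i)).card := by
    apply (Finset.sum_eq_sum_iff_of_le fun i _ => h1 i).1
    refine le_antisymm (Finset.sum_le_sum fun i _ => h1 i) ?_
    rw [← Multiset.card_sum, ← Multiset.card_sum, ← hP, ← hpa]
    exact hle
  rw [hP, hpa]
  refine Finset.sum_congr rfl fun i hi => ?_
  have hc := h2 i hi
  by_cases h : μ i = 0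
  · simp only [hind, if_pos h, Multiset.card_zero] at hc ⊢
    exact (Multiset.card_eq_zero.1 hc.symm).symm
  · simp only [hind, if_neg h, Multiset.card_singleton] at hc ⊢
    obtain ⟨a, ha⟩ := Multiset.card_eq_one.1 hc.symm
    have := hs i
    rw [ha, Multiset.sum_singleton] at this
    rw [ha, this]

theorem exists_monic_irreducible [Finite F] {d : ℕ} (hd : 0 < d) :
    ∃ p : F[X], p.Monic ∧ Irreducible p ∧ p.natDegree = d ∧ p.eval 0 ≠ 0 := by
  rcases Nat.lt_or_ge d 2 with h | h
  · refine ⟨X - C 1, monic_X_sub_C 1, irreducible_X_sub_C 1, ?_, by simp⟩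
    rw [natDegree_X_sub_C]; omega
  · obtain ⟨p, hp⟩ := CharP.exists F
    have : Fact p.Prime := ⟨CharP.char_is_prime F p⟩
    have : NeZero d := ⟨by omega⟩
    obtain ⟨α, hα⟩ := Field.exists_primitive_element F (FiniteField.Extension F p d)
    have hint : IsIntegral F α := IsIntegral.of_finite F α
    have hdeg : (minpoly F α).natDegree = d := by
      rw [← IntermediateField.adjoin.finrank hint, hα, IntermediateField.finrank_top',
        FiniteField.finrank_extension]
    refine ⟨minpoly F α, minpoly.monic hint, minpoly.irreducible hint, hdeg, ?_⟩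
    rw [← coeff_zero_eq_eval_zero]
    refine minpoly.coeff_zero_ne_zero hint ?_
    rintro rfl
    rw [minpoly.zero, natDegree_X] at hdeg
    omega

theorem exists_separating [Finite F] (ρ : Fin n → ℕ) (hρ : ∑ i, ρ i = n) :
    ∃ P : F[X], P.Monic ∧ P.natDegree = n ∧ P.eval 0 ≠ 0 ∧ facDeg P = parts ρ ∧
      Nonempty (Tup P ρ) := by
  classical
  have hex : ∀ d : ℕ, ∃ p : F[X], p.Monic ∧ p.natDegree = d ∧ p.eval 0 ≠ 0 ∧
      facDeg p = if d = 0 then 0 else {d} := by
    intro d
    by_cases hd : d = 0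
    · exact ⟨1, monic_one, by simp [hd], by simp, by simp [hd, facDeg]⟩
    · obtain ⟨p, h1, h2, h3, h4⟩ := exists_monic_irreducible (F := F) (Nat.pos_of_ne_zero hd)
      exact ⟨p, h1, h3, h4, by rw [facDeg_of_irreducible h2 h1, h3, if_neg hd]⟩
  choose p hm hd h0 hf using hex
  refine ⟨∏ i, p (ρ i), monic_prod_of_monic _ _ fun i _ => hm _, ?_, ?_, ?_,
    ⟨⟨fun i => p (ρ i), fun i => hm _, fun i => hd _, rfl⟩⟩⟩
  · rw [natDegree_prod_of_monic _ _ fun i _ => hm _]
    simp [hd, hρ]
  · rw [eval_prod]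
    exact Finset.prod_ne_zero_iff.2 fun i _ => h0 _
  · rw [facDeg_prod _ _ fun i _ => (hm _).ne_zero, parts_eq_sum]
    exact Finset.sum_congr rfl fun i _ => hf _

section coeff

variable (ν : Fin n → ℕ)

/-- The composition attached to a permutation. -/
def shift (κ : Equiv.Perm (Fin n)) : Fin n → ℕ := fun i => ν i + i.val - (κ i).val

/-- The permutations that contribute. -/
def valid : Finset (Equiv.Perm (Fin n)) :=
  Finset.univ.filter fun κ => ∀ i : Fin n, (κ i).val ≤ ν i + i.val

theorem sum_shift {κ : Equiv.Perm (Fin n)} (h : κ ∈ valid ν) : ∑ i, shift ν κ i = ∑ i, ν i := by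
  have hk : ∀ i, (κ i).val ≤ ν i + i.val := (Finset.mem_filter.1 h).2
  have e : ∀ i, shift ν κ i + (κ i).val = ν i + i.val := fun i => Nat.sub_add_cancel (hk i)
  have := Finset.sum_congr rfl (fun i (_ : i ∈ Finset.univ) => e i)
  rw [Finset.sum_add_distrib, Finset.sum_add_distrib, Equiv.sum_comp κ fun i : Fin n => i.val]
    at this
  omega

theorem shift_one : shift ν 1 = ν := funext fun i => by simp [shift]

theorem one_mem_valid : (1 : Equiv.Perm (Fin n)) ∈ valid ν := by
  simp [valid]

variable {ν}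

theorem sq_lt_sq_shift (hm : Monotone ν) {κ : Equiv.Perm (Fin n)} (h : κ ∈ valid ν) (h1 : κ ≠ 1) :
    ∑ i, ((ν i : ℤ)) ^ 2 < ∑ i, ((shift ν κ i : ℤ)) ^ 2 := by
  have hk : ∀ i, (κ i).val ≤ ν i + i.val := (Finset.mem_filter.1 h).2
  set L : Fin n → ℤ := fun i => (ν i : ℤ) + i.val with hL
  have hLs : StrictMono L := fun a b hab => by
    have := hm hab.le
    have : a.val < b.val := hab
    simp only [hL]; omega
  set j : Fin n → ℤ := fun i => (i.val : ℤ) with hj
  have hjs : StrictMono j := fun a b hab => by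
    have : a.val < b.val := hab
    simp only [hj]; omega
  have hlt : ∑ i, L i * j (κ i) < ∑ i, L i * j i := by
    rw [(hLs.monotone.monovary hjs.monotone).sum_mul_comp_perm_lt_sum_mul_iff]
    intro hmv
    apply h1
    have hmono : Monotone κ := by
      intro a b hab
      rcases eq_or_lt_of_le hab with rfl | hlt'
      · exact le_rfl
      · by_contra hc
        push Not at hc
        exact absurd (hLs hlt') (not_lt.2 (hmv (hjs hc)))
    have := Tuple.unique_monotone (f := id) (σ := κ) (τ := 1) hmono monotone_id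
    exact Equiv.ext fun i => congrFun this i
  have hs : ∑ i, (shift ν κ i : ℤ) ^ 2 = ∑ i, (L i - j (κ i)) ^ 2 :=
    Finset.sum_congr rfl fun i _ => by
      simp only [shift, hL, hj]
      rw [Nat.cast_sub (hk i)]
      push_cast
      ring
  have hn : ∑ i, ((ν i : ℤ)) ^ 2 = ∑ i, (L i - j i) ^ 2 :=
    Finset.sum_congr rfl fun i _ => by simp only [hL, hj]; ring
  rw [hs, hn]
  simp only [sub_sq, Finset.sum_add_distrib, Finset.sum_sub_distrib, mul_assoc, ← Finset.mul_sum]
  rw [Equiv.sum_comp κ fun i => j i ^ 2]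
  linarith

/-- The coefficient of the flags of type `m`. -/
noncomputable def coef (ν : Fin n → ℕ) (m : Multiset ℕ) : ℂ :=
  ∑ κ ∈ (valid ν).filter (fun κ => parts (shift ν κ) = m), ((Equiv.Perm.sign κ : ℤ) : ℂ)

theorem coef_self (hm : Monotone ν) : coef ν (parts ν) = 1 := by
  rw [coef, Finset.sum_eq_single_of_mem (1 : Equiv.Perm (Fin n))]
  · simp
  · simp [one_mem_valid, shift_one]
  · intro κ hκ h1
    have := sq_lt_sq_shift hm (Finset.mem_filter.1 hκ).1 h1
    rw [sq_sum_eq_of_parts_eq (Finset.mem_filter.1 hκ).2] at this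
    exact absurd this (lt_irrefl _)

theorem coef_eq_zero {ν' : Fin n → ℕ} (hm : Monotone ν) (hm' : Monotone ν') (hne : ν ≠ ν')
    (hle : ∑ i, ((ν i : ℤ)) ^ 2 ≤ ∑ i, ((ν' i : ℤ)) ^ 2) : coef ν' (parts ν) = 0 := by
  refine Finset.sum_eq_zero fun κ hκ => ?_
  obtain ⟨hv, hp⟩ := Finset.mem_filter.1 hκ
  exfalso
  by_cases h1 : κ = 1
  · rw [h1, shift_one] at hp
    exact hne (eq_of_monotone_parts_eq hm hm' hp.symm)
  · have := sq_lt_sq_shift hm' hv h1
    rw [sq_sum_eq_of_parts_eq hp] at this
    exact absurd this (not_lt.2 hle)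

end coeff

/-- **Distinctness of the partition-indexed characters.** -/
theorem unipotentCharacterGL_injective [Finite F] {ν ν' : Fin n → ℕ} (hm : Monotone ν)
    (hs : ∑ i, ν i = n) (hm' : Monotone ν') (hs' : ∑ i, ν' i = n)
    (h : unipotentCharacterGL n F ν = unipotentCharacterGL n F ν') : ν = ν' := by
  classical
  by_contra hne
  wlog hle : ∑ i, ((ν i : ℤ)) ^ 2 ≤ ∑ i, ((ν' i : ℤ)) ^ 2 generalizing ν ν'
  · exact this hm' hs' hm hs h.symm (Ne.symm hne) (le_of_not_ge hle)
  -- the classes that occur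
  set S : Finset (Multiset ℕ) :=
    ((valid ν).image fun κ => parts (shift ν κ)) ∪ (valid ν').image fun κ => parts (shift ν' κ)
    with hS
  have hrep : ∀ m ∈ S, ∃ ρ : Fin n → ℕ, (∑ i, ρ i = n) ∧ parts ρ = m := by
    intro m hmS
    rcases Finset.mem_union.1 hmS with h' | h' <;> obtain ⟨κ, hκ, rfl⟩ := Finset.mem_image.1 h'
    · exact ⟨_, (sum_shift ν hκ).trans hs, rfl⟩
    · exact ⟨_, (sum_shift ν' hκ).trans hs', rfl⟩
  choose rep hrs hrp using hrep
  have hD : ∀ m ∈ S, coef ν m = coef ν' m := by
    by_contra hc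
    push Not at hc
    obtain ⟨m0, hm0, hmin⟩ := Finset.exists_min_image (S.filter fun m => coef ν m ≠ coef ν' m)
      Multiset.card (by obtain ⟨m, h1, h2⟩ := hc; exact ⟨m, Finset.mem_filter.2 ⟨h1, h2⟩⟩)
    obtain ⟨hm0S, hm0ne⟩ := Finset.mem_filter.1 hm0
    obtain ⟨P, hP, hPd, hP0, hPf, hPt⟩ := exists_separating (F := F) (rep m0 hm0S) (hrs m0 hm0S)
    obtain ⟨g, hg⟩ := exists_gl_fixed_card hP hPd hP0
    set c : Multiset ℕ → ℂ := fun m =>
      if hmS : m ∈ S then (Nat.card (Tup P (rep m hmS)) : ℂ) else 0 with hc'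
    have hval : ∀ μ : Fin n → ℕ, (∑ i, μ i = n) → parts μ ∈ S →
        fixedPointCharacter (parabolicGL n F μ) g = c (parts μ) := by
      intro μ h1 h2
      rw [hg μ h1, hc']
      simp only [dif_pos h2]
      rw [card_tup_of_parts_eq P (hrp _ h2).symm]
    have key : ∀ η : Fin n → ℕ, (∑ i, η i = n) →
        ((valid η).image fun κ => parts (shift η κ)) ⊆ S →
        unipotentCharacterGL n F η g = ∑ m ∈ S, coef η m * c m := by
      intro η hη hsub
      have e1 : unipotentCharacterGL n F η g = ∑ κ ∈ valid η,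
          ((Equiv.Perm.sign κ : ℤ) : ℂ) * c (parts (shift η κ)) := by
        unfold unipotentCharacterGL valid
        rw [← Finset.sum_filter]
        refine Finset.sum_congr (by ext; simp) fun κ hκ => ?_
        have hκ' : κ ∈ valid η := by simpa [valid] using hκ
        rw [← hval (shift η κ) ((sum_shift η hκ').trans hη)
          (hsub (Finset.mem_image_of_mem _ hκ'))]
        rfl
      rw [e1, ← Finset.sum_fiberwise_of_maps_to (g := fun κ => parts (shift η κ))
        fun κ hκ => hsub (Finset.mem_image_of_mem _ hκ)]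
      refine Finset.sum_congr rfl fun m _ => ?_
      rw [coef, Finset.sum_mul]
      refine Finset.sum_congr rfl fun κ hκ => ?_
      rw [(Finset.mem_filter.1 hκ).2]
    have heq := congrFun h g
    rw [key ν hs Finset.subset_union_left, key ν' hs' Finset.subset_union_right, ← sub_eq_zero,
      ← Finset.sum_sub_distrib, Finset.sum_eq_single_of_mem m0 hm0S ?_] at heq
    · rw [← sub_mul, mul_eq_zero, sub_eq_zero] at heq
      rcases heq with h1 | h1
      · exact hm0ne h1
      · rw [hc'] at h1
        simp only [dif_pos hm0S, Nat.cast_eq_zero] at h1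
        have := finite_tup hP.ne_zero (rep m0 hm0S)
        exact (Nat.card_pos (α := Tup P (rep m0 hm0S))).ne' h1
    · intro m hmS hmne
      rw [← sub_mul]
      by_cases hcm : coef ν m = coef ν' m
      · rw [hcm, sub_self, zero_mul]
      · have hcard := hmin m (Finset.mem_filter.2 ⟨hmS, hcm⟩)
        rw [hc']
        simp only [dif_pos hmS]
        have : IsEmpty (Tup P (rep m hmS)) := ⟨fun f => hmne (by
          have := parts_eq_of_tup f (by rw [hPf, hrp, hrp]; exact hcard)
          rwa [hPf, hrp, hrp] at this)⟩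
        rw [Nat.card_of_isEmpty, Nat.cast_zero, mul_zero]
  have := hD (parts ν) (Finset.mem_union_left _
    (Finset.mem_image.2 ⟨1, one_mem_valid ν, by rw [shift_one]⟩))
  rw [coef_self hm, coef_eq_zero hm hm' hne hle] at this
  exact one_ne_zero this

end Cfsg.Agent.UnipotentGL
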