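import Mathlib
import Cfsg.Agent.Lib.UnipotentGL.Orbits
import Cfsg.Agent.Lib.UnipotentGL.Distinct

/-!
# The Cauchy determinant and orthonormality of the alternating sums

Comparing coefficients in `det (1 / (1 - x_i y_j)) = Δ(x) Δ(y) / ∏ (1 - x_i y_j)` shows that the
alternating sum of numbers of tables with prescribed margins is one.
-/

set_option autoImplicit false

open scoped BigOperators
open Finset

namespace Cfsg.Agent.UnipotentGL

variable {n : ℕ}

section det

variable {R : Type*} [CommRing R]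

theorem prod_erase_expand (y : Fin n → R) (a b : R) (j : Fin n) :
    ∏ k ∈ univ.erase j, (a - b * y k) = ∑ m : Fin n, b ^ m.val * a ^ m.rev.val *
      ((-1) ^ m.val * ∑ t ∈ (univ.erase j).powersetCard m.val, ∏ k ∈ t, y k) := by
  have hc : (univ.erase j).card = n - 1 := by simp
  have h0 : 0 < n := j.pos
  have e : ∀ k, a - b * y k = -(b * y k) + a := fun k => by ring
  simp only [e]
  rw [Finset.prod_add, Finset.sum_powerset, hc, show n - 1 + 1 = n by omega,
    ← Fin.sum_univ_eq_sum_range (fun m => ∑ t ∈ (univ.erase j).powersetCard m, (∏ k ∈ t, -(b * y k)) * ∏ _k ∈ (univ.erase j) \ t, a) n]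
  refine Finset.sum_congr rfl fun m _ => ?_
  rw [mul_sum, mul_sum]
  refine Finset.sum_congr rfl fun t ht => ?_
  obtain ⟨hts, htc⟩ := mem_powersetCard.1 ht
  rw [prod_const, card_sdiff_of_subset hts, hc, htc, Fin.val_rev,
    show n - 1 - m.val = n - (m.val + 1) by omega,
    prod_congr rfl fun k (_ : k ∈ t) => (neg_one_mul (b * y k)).symm,
    prod_mul_distrib, prod_mul_distrib, prod_const, prod_const, htc]
  ring

theorem prod_erase_eq (f : Fin n → Fin n → R) :
    ∏ i, ∏ k ∈ univ.erase i, f i k =
      (∏ i, ∏ k ∈ Ioi i, f i k) * ∏ i, ∏ k ∈ Ioi i, f k i := by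
  have e : ∀ i : Fin n, univ.erase i = Ioi i ∪ Iio i := fun i => by
    ext k
    simp [lt_or_lt_iff_ne, eq_comm]
  have d : ∀ i : Fin n, Disjoint (Ioi i) (Iio i) := fun i => by
    rw [disjoint_left]
    intro k h1 h2
    exact lt_asymm (mem_Ioi.1 h1) (mem_Iio.1 h2)
  simp only [e]
  rw [prod_congr rfl fun i _ => prod_union (d i), prod_mul_distrib]
  congr 1
  exact Finset.prod_comm' (fun i k => by simp)

/-- The key evaluation behind the Cauchy determinant. -/
theorem det_prod_erase [IsDomain R] (x y : Fin n → R) (hy : Function.Injective y) :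
    (Matrix.of fun i j => ∏ k ∈ univ.erase j, (1 - x i * y k)).det =
      (Matrix.vandermonde x).det * (Matrix.vandermonde y).det := by
  classical
  set C : Matrix (Fin n) (Fin n) R := Matrix.of fun m j =>
    (-1) ^ m.val * ∑ t ∈ (univ.erase j).powersetCard m.val, ∏ k ∈ t, y k with hC
  have h1 : (Matrix.of fun i j => ∏ k ∈ univ.erase j, (1 - x i * y k)) =
      Matrix.projVandermonde x 1 * C := by
    ext i j
    rw [Matrix.mul_apply, Matrix.of_apply, prod_erase_expand]
    simp [Matrix.projVandermonde_apply, hC]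
  have h2 : Matrix.projVandermonde 1 y * C =
      Matrix.diagonal fun i => ∏ k ∈ univ.erase i, (y i - y k) := by
    ext i j
    have := prod_erase_expand y (y i) 1 j
    simp only [one_mul] at this
    rw [Matrix.mul_apply]
    simp only [Matrix.projVandermonde_apply, hC, Matrix.of_apply, Pi.one_apply, one_pow, one_mul]
      at this ⊢
    rw [← this]
    rcases eq_or_ne i j with rfl | hij
    · rw [Matrix.diagonal_apply_eq]
    · rw [Matrix.diagonal_apply_ne _ hij]
      exact prod_eq_zero (mem_erase.2 ⟨hij, mem_univ i⟩) (sub_self _)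
  have h3 : C.det = (Matrix.vandermonde y).det := by
    have := congrArg Matrix.det h2
    rw [Matrix.det_mul, Matrix.det_projVandermonde, Matrix.det_diagonal, prod_erase_eq] at this
    simp only [Pi.one_apply, one_mul] at this
    rw [Matrix.det_vandermonde]
    refine mul_left_cancel₀ ?_ this
    exact prod_ne_zero_iff.2 fun i _ => prod_ne_zero_iff.2 fun k hk =>
      sub_ne_zero.2 fun h => (mem_Ioi.1 hk).ne (hy h)
  rw [h1, Matrix.det_mul, h3, ← Matrix.vandermonde_eq_projVandermonde]

end det

section series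

variable {σ ι : Type*} [Fintype ι]

open Classical in
/-- The geometric series in the monomial of exponent `v`. -/
noncomputable def geo (v : σ →₀ ℕ) : MvPowerSeries σ ℤ :=
  fun d => if ∃ k : ℕ, d = k • v then 1 else 0

open Classical in
theorem coeff_geo (v d : σ →₀ ℕ) :
    MvPowerSeries.coeff d (geo v) = if ∃ k : ℕ, d = k • v then 1 else 0 := rfl

theorem one_sub_mul_geo {v : σ →₀ ℕ} (hv : v ≠ 0) :
    (1 - MvPowerSeries.monomial v 1) * geo v = 1 := by
  classical
  ext d
  rw [sub_mul, one_mul, map_sub, MvPowerSeries.coeff_monomial_mul, MvPowerSeries.coeff_one,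
    coeff_geo]
  by_cases hd : d = 0
  · subst hd
    rw [if_pos ⟨0, by simp⟩, if_neg (fun h => hv (le_antisymm h (zero_le)))]
    simp
  rw [if_neg hd]
  by_cases hle : v ≤ d
  · rw [if_pos hle, one_mul, coeff_geo, sub_eq_zero]
    refine if_congr ⟨?_, ?_⟩ rfl rfl
    · rintro ⟨k, rfl⟩
      obtain ⟨m, rfl⟩ : ∃ m, k = m + 1 := ⟨k - 1, by
        rcases k with _ | k
        · simp at hd
        · rfl⟩
      exact ⟨m, by rw [add_smul, one_smul, add_tsub_cancel_right]⟩
    · rintro ⟨k, hk⟩
      exact ⟨k + 1, by rw [add_smul, one_smul, ← hk, tsub_add_cancel_of_le hle]⟩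
  · rw [if_neg hle, sub_zero, if_neg]
    rintro ⟨k, rfl⟩
    rcases k with _ | k
    · simp at hd
    · exact hle (by rw [add_smul, one_smul]; exact le_add_self)

/-- Coefficients of a product of geometric series count representations. -/
theorem coeff_prod_geo (v : ι → σ →₀ ℕ) (hv : ∀ p, v p ≠ 0) (d : σ →₀ ℕ) :
    MvPowerSeries.coeff d (∏ p, geo (v p)) =
      (Nat.card {k : ι → ℕ // ∑ p, k p • v p = d} : ℤ) := by
  classical
  rw [MvPowerSeries.coeff_prod]
  simp only [coeff_geo, Fintype.prod_boole]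
  refine (Finset.sum_boole _ _).trans ?_
  congr 1
  rw [← Nat.card_eq_finsetCard]
  symm
  refine Nat.card_eq_of_bijective
    (fun k : {k : ι → ℕ // ∑ p, k p • v p = d} =>
      (⟨Finsupp.equivFunOnFinite.symm fun p => k.1 p • v p, ?_⟩ : {l // l ∈ _})) ⟨?_, ?_⟩
  · simp only [mem_filter, mem_finsuppAntidiag, Finsupp.coe_equivFunOnFinite_symm]
    exact ⟨⟨k.2, subset_univ _⟩, fun p => ⟨k.1 p, rfl⟩⟩
  · rintro ⟨k, hk⟩ ⟨k', hk'⟩ h
    refine Subtype.ext (funext fun p => ?_)
    have h' := DFunLike.congr_fun (congrArg Subtype.val h) p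
    simp only [Finsupp.coe_equivFunOnFinite_symm] at h'
    obtain ⟨a, ha⟩ := Finsupp.ne_iff.1 (hv p)
    have h'' := DFunLike.congr_fun h' a
    simp only [Finsupp.coe_smul, Pi.smul_apply, smul_eq_mul] at h''
    exact Nat.eq_of_mul_eq_mul_right (Nat.pos_of_ne_zero (by simpa using ha)) h''
  · rintro ⟨l, hl⟩
    simp only [mem_filter, mem_finsuppAntidiag] at hl
    choose k hk using hl.2
    refine ⟨⟨k, ?_⟩, Subtype.ext (Finsupp.ext fun p => ?_)⟩
    · rw [← hl.1.1]
      exact sum_congr rfl fun p _ => (hk p).symm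
    · simp [hk p]

end series

section cauchy

/-- An exponent in both sets of variables. -/
noncomputable def mix (a b : Fin n → ℕ) : Fin n ⊕ Fin n →₀ ℕ :=
  Finsupp.equivFunOnFinite.symm (Sum.elim a b)

@[simp] theorem mix_inl (a b : Fin n → ℕ) (i : Fin n) : mix a b (Sum.inl i) = a i := by
  simp [mix]

@[simp] theorem mix_inr (a b : Fin n → ℕ) (i : Fin n) : mix a b (Sum.inr i) = b i := by
  simp [mix]

theorem mix_eq_iff {a b : Fin n → ℕ} {d : Fin n ⊕ Fin n →₀ ℕ} :
    d = mix a b ↔ (∀ i, d (Sum.inl i) = a i) ∧ ∀ i, d (Sum.inr i) = b i := by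
  constructor
  · rintro rfl
    simp
  · rintro ⟨h1, h2⟩
    refine Finsupp.ext fun p => ?_
    rcases p with i | i
    · simp [h1]
    · simp [h2]

/-- The exponent of `x_i y_j`. -/
noncomputable def pairExp (i j : Fin n) : Fin n ⊕ Fin n →₀ ℕ :=
  Finsupp.single (Sum.inl i) 1 + Finsupp.single (Sum.inr j) 1

theorem pairExp_ne_zero (i j : Fin n) : pairExp i j ≠ 0 := fun h => by
  simpa [pairExp] using DFunLike.congr_fun h (Sum.inl i)

local notation "Ser" => MvPowerSeries (Fin n ⊕ Fin n) ℤ

theorem sum_pairExp_inl (k : Fin n × Fin n → ℕ) (a : Fin n) :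
    (∑ p, k p • pairExp p.1 p.2) (Sum.inl a) = ∑ b, k (a, b) := by
  classical
  rw [Finsupp.finsetSum_apply, Fintype.sum_prod_type]
  simp [pairExp, Finsupp.single_apply]

theorem sum_pairExp_inr (k : Fin n × Fin n → ℕ) (b : Fin n) :
    (∑ p, k p • pairExp p.1 p.2) (Sum.inr b) = ∑ a, k (a, b) := by
  classical
  rw [Finsupp.finsetSum_apply, Fintype.sum_prod_type]
  simp [pairExp, Finsupp.single_apply]

theorem coeff_all_geo (a b : Fin n → ℕ) :
    MvPowerSeries.coeff (mix a b) (∏ p : Fin n × Fin n, geo (pairExp p.1 p.2)) =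
      (Nat.card (Margins a b) : ℤ) := by
  rw [coeff_prod_geo (fun p : Fin n × Fin n => pairExp p.1 p.2) fun p => pairExp_ne_zero p.1 p.2]
  congr 1
  refine Nat.card_congr (Equiv.subtypeEquivRight fun k => ?_)
  rw [mix_eq_iff]
  simp only [sum_pairExp_inl, sum_pairExp_inr]

theorem det_vandermonde_monomial (f : Fin n → Fin n ⊕ Fin n) :
    (Matrix.vandermonde fun i => (MvPowerSeries.X (f i) : Ser)).det =
      ∑ κ : Equiv.Perm (Fin n), (Equiv.Perm.sign κ : ℤ) •
        MvPowerSeries.monomial (∑ i, Finsupp.single (f i) (κ i).val) (1 : ℤ) := by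
  classical
  rw [← Matrix.det_transpose, Matrix.det_apply']
  refine sum_congr rfl fun κ _ => ?_
  have : ∀ s : Finset (Fin n), ∏ i ∈ s, (MvPowerSeries.X (f i) : Ser) ^ (κ i).val =
      MvPowerSeries.monomial (∑ i ∈ s, Finsupp.single (f i) (κ i).val) (1 : ℤ) := by
    intro s
    induction s using Finset.induction with
    | empty => simp [MvPowerSeries.monomial_zero_eq_C_apply]
    | insert a s ha ih =>
      rw [prod_insert ha, sum_insert ha, ih, MvPowerSeries.X_pow_eq,
        MvPowerSeries.monomial_mul_monomial, one_mul]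
  rw [zsmul_eq_mul]
  simp only [Matrix.transpose_apply, Matrix.vandermonde_apply]
  rw [this univ]

theorem coeff_det_geo {L : Fin n → ℕ} (hL : Function.Injective L) :
    MvPowerSeries.coeff (mix L L)
      (Matrix.det (Matrix.of fun i j : Fin n => (geo (pairExp i j) : Ser))) = 1 := by
  classical
  rw [Matrix.det_apply', map_sum]
  have key : ∀ τ : Equiv.Perm (Fin n),
      MvPowerSeries.coeff (mix L L) (∏ i, geo (pairExp (τ i) i)) =
        if τ = 1 then 1 else 0 := by
    intro τ
    rw [coeff_prod_geo (fun i => pairExp (τ i) i) fun i => pairExp_ne_zero (τ i) i]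
    have hiff : ∀ k : Fin n → ℕ, (∑ i, k i • pairExp (τ i) i = mix L L) ↔ (τ = 1 ∧ k = L) := by
      intro k
      have hr : ∀ a, (∑ i, k i • pairExp (τ i) i) (Sum.inr a) = k a := fun a => by
        rw [Finsupp.finsetSum_apply]
        simp [pairExp, Finsupp.single_apply]
      have hl : ∀ a, (∑ i, k i • pairExp (τ i) i) (Sum.inl a) = k (τ⁻¹ a) := fun a => by
        rw [Finsupp.finsetSum_apply, sum_eq_single (τ⁻¹ a)]
        · simp [pairExp]
        · intro i _ hi
          have : τ i ≠ a := fun h => hi (by simp [← h])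
          simp [pairExp, Finsupp.single_apply, this]
        · simp
      rw [mix_eq_iff]
      simp only [hl, hr]
      constructor
      · rintro ⟨h1, h2⟩
        refine ⟨?_, funext h2⟩
        ext a : 1
        have := h1 (τ a)
        simp only [h2, Equiv.Perm.inv_def, Equiv.symm_apply_apply] at this
        simpa using (hL this).symm
      · rintro ⟨rfl, rfl⟩
        simp
    by_cases hτ : τ = 1
    · rw [if_pos hτ]
      have : Unique {k : Fin n → ℕ // ∑ i, k i • pairExp (τ i) i = mix L L} :=
        { default := ⟨L, (hiff L).2 ⟨hτ, rfl⟩⟩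
          uniq := fun k => Subtype.ext ((hiff k.1).1 k.2).2 }
      simp
    · rw [if_neg hτ]
      have : IsEmpty {k : Fin n → ℕ // ∑ i, k i • pairExp (τ i) i = mix L L} :=
        ⟨fun k => hτ ((hiff k.1).1 k.2).1⟩
      simp
  simp only [← zsmul_eq_mul, map_zsmul, Matrix.of_apply, key]
  rw [sum_eq_single 1] <;> simp +contextual

/-- **Orthonormality of the alternating sums over Young subgroups.** -/
theorem sum_sign_card_margins {ν : Fin n → ℕ} (hm : Monotone ν) :
    ∑ κ ∈ valid ν, ∑ κ' ∈ valid ν, (Equiv.Perm.sign κ : ℤ) * (Equiv.Perm.sign κ' : ℤ) *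
      (Nat.card (Margins (shift ν κ) (shift ν κ')) : ℤ) = 1 := by
  classical
  set L : Fin n → ℕ := fun i => ν i + i.val with hLdef
  have hL : StrictMono L := fun a b hab => by
    have := hm hab.le
    have : a.val < b.val := hab
    simp only [hLdef]; omega
  set x : Fin n → Ser := fun i => MvPowerSeries.X (Sum.inl i) with hx
  set y : Fin n → Ser := fun i => MvPowerSeries.X (Sum.inr i) with hy
  set G : Matrix (Fin n) (Fin n) Ser := Matrix.of fun i j => geo (pairExp i j) with hG
  have hgeo : ∀ i j, (1 - x i * y j) * G i j = 1 := by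
    intro i j
    rw [hx, hy, hG]
    simp only [Matrix.of_apply, MvPowerSeries.X_def, MvPowerSeries.monomial_mul_monomial, one_mul]
    exact one_sub_mul_geo (pairExp_ne_zero i j)
  have : IsDomain Ser := NoZeroDivisors.to_isDomain _
  have hdet : G.det = (Matrix.vandermonde x).det * (Matrix.vandermonde y).det *
      ∏ p : Fin n × Fin n, geo (pairExp p.1 p.2) := by
    rw [← det_prod_erase x y fun a b h => Sum.inr_injective (MvPowerSeries.X_inj.1 h)]
    have : (Matrix.of fun i j => ∏ k ∈ univ.erase j, (1 - x i * y k)) =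
        Matrix.of fun i j => (∏ k, (1 - x i * y k)) * G i j := by
      ext i j : 1
      simp only [Matrix.of_apply]
      rw [← mul_prod_erase univ (fun k => 1 - x i * y k) (mem_univ j),
        mul_comm (1 - x i * y j), mul_assoc, hgeo, mul_one]
    rw [this, Matrix.det_mul_column, Fintype.prod_prod_type, mul_comm _ G.det, mul_assoc,
      ← prod_mul_distrib]
    have e : ∀ i, (∏ k, (1 - x i * y k)) * ∏ k, geo (pairExp i k) = 1 := fun i => by
      rw [← prod_mul_distrib]
      exact prod_eq_one fun k _ => hgeo i k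
    simp only [e, prod_const_one, mul_one]
  have h1 := coeff_det_geo hL.injective
  rw [← hG, hdet, hx, hy, det_vandermonde_monomial, det_vandermonde_monomial] at h1
  simp only [sum_mul, mul_sum, map_sum, smul_mul_assoc, mul_smul_comm, map_zsmul, smul_smul,
    MvPowerSeries.monomial_mul_monomial, one_mul, MvPowerSeries.coeff_monomial_mul] at h1
  have hmix : ∀ κ κ' : Equiv.Perm (Fin n),
      (∑ i, Finsupp.single (Sum.inl i : Fin n ⊕ Fin n) (κ i).val) +
        ∑ i, Finsupp.single (Sum.inr i : Fin n ⊕ Fin n) (κ' i).val =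
      mix (fun i => (κ i).val) (fun i => (κ' i).val) := fun κ κ' => by
    rw [mix_eq_iff]
    simp [Finsupp.finsetSum_apply, Finsupp.single_apply]
  simp only [hmix] at h1
  have hterm : ∀ κ κ' : Equiv.Perm (Fin n),
      (if mix (fun i => (κ i).val) (fun i => (κ' i).val) ≤ mix L L then
        MvPowerSeries.coeff (mix L L - mix (fun i => (κ i).val) (fun i => (κ' i).val))
          (∏ p : Fin n × Fin n, geo (pairExp p.1 p.2)) else 0) =
      if κ ∈ valid ν ∧ κ' ∈ valid ν then (Nat.card (Margins (shift ν κ) (shift ν κ')) : ℤ)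
        else 0 := by
    intro κ κ'
    refine if_congr ?_ ?_ rfl
    · simp only [Finsupp.le_def, Sum.forall, mix_inl, mix_inr, valid, mem_filter, mem_univ,
        true_and]
      rfl
    · rw [show mix L L - mix (fun i => (κ i).val) (fun i => (κ' i).val) =
          mix (shift ν κ) (shift ν κ') from mix_eq_iff.2 (by simp [shift, hLdef]), coeff_all_geo]
  simp only [hterm, smul_eq_mul, mul_ite, mul_zero] at h1
  rw [← h1]
  simp only [ite_and, sum_ite_mem, univ_inter, mul_sum, mul_ite, mul_zero]
  conv_rhs => rw [Finset.sum_comm]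
  refine sum_congr rfl fun κ _ => ?_
  rw [sum_ite_mem, univ_inter]
  exact sum_congr rfl fun κ' _ => by ring

end cauchy

end Cfsg.Agent.UnipotentGL
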