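import Mathlib
import Cfsg.Agent.Lib.UnipotentGL.ParabolicIndex
import Cfsg.Agent.Lib.UnipotentGL.Distinct

/-!
# Degrees of the partition-indexed characters
-/

set_option autoImplicit false

namespace Cfsg.Agent.UnipotentGL

open Polynomial

variable {F : Type*} [Field F] [Fintype F] {n : ℕ}

/-- The `q`-integer in `ℂ`. -/
noncomputable def qInt (q m : ℕ) : ℂ := ((∑ l ∈ Finset.range m, q ^ l : ℕ) : ℂ)

theorem qInt_strictMono {q : ℕ} (hq : 0 < q) : StrictMono fun m => ∑ l ∈ Finset.range m, q ^ l :=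
  strictMono_nat_of_lt_succ fun m => by
    rw [Finset.sum_range_succ]; exact Nat.lt_add_of_pos_right (pow_pos hq m)

theorem qFact_cast (q m : ℕ) : (qFact q m : ℂ) = ∏ j ∈ Finset.range m, qInt q (j + 1) := by
  simp [qFact, qInt]

/-- Descending product. -/
noncomputable def desc (q a j : ℕ) : ℂ := ∏ l ∈ Finset.range j, qInt q (a - l)

theorem desc_mul {q a j : ℕ} (h : j ≤ a) : desc q a j * (qFact q (a - j) : ℂ) = (qFact q a : ℂ) := by
  induction j with
  | zero => simp [desc]
  | succ j ih =>
    rw [← ih (by omega), desc, desc, Finset.prod_range_succ, mul_assoc]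
    congr 1
    rw [qFact_cast, qFact_cast, show a - j = a - (j + 1) + 1 by omega, Finset.prod_range_succ,
      mul_comm]

theorem desc_eq_zero {q a j : ℕ} (h : a < j) : desc q a j = 0 :=
  Finset.prod_eq_zero (Finset.mem_range.2 h) (by simp [qInt])

theorem desc_pow (q a j : ℕ) :
    desc q a j * (q : ℂ) ^ (∑ l ∈ Finset.range j, l) =
      ∏ l ∈ Finset.range j, (qInt q a - qInt q l) := by
  rcases Nat.lt_or_ge a j with h | h
  · rw [desc_eq_zero h, zero_mul]
    exact (Finset.prod_eq_zero (Finset.mem_range.2 h) (sub_self _)).symm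
  · rw [desc, ← Finset.prod_pow_eq_pow_sum, ← Finset.prod_mul_distrib]
    refine Finset.prod_congr rfl fun l hl => ?_
    have hl' := Finset.mem_range.1 hl
    rw [qInt, qInt, qInt]
    push_cast
    conv_rhs => rw [show a = l + (a - l) by omega, Finset.sum_range_add]
    rw [add_sub_cancel_left, Finset.sum_mul]
    exact Finset.sum_congr rfl fun k _ => by rw [← pow_add, add_comm]

theorem six_mul_sum_sum (n : ℕ) :
    6 * (∑ j ∈ Finset.range n, ∑ l ∈ Finset.range j, l) = n * (n - 1) * (n - 2) := by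
  induction n with
  | zero => rfl
  | succ n ih =>
    rw [Finset.sum_range_succ, mul_add, ih]
    have := two_mul_sum_range n
    rcases n with _ | _ | n
    · simp
    · simp
    · simp only [Nat.add_sub_cancel] at this ⊢
      rw [show n + 1 + 1 + 1 - 2 = n + 1 by omega, show n + 1 + 1 - 2 = n by omega]
      nlinarith

theorem fixedPointCharacter_one {G : Type*} [Group G] (H : Subgroup G) :
    fixedPointCharacter H 1 = (Nat.card (G ⧸ H) : ℂ) := by
  unfold fixedPointCharacter
  congr 1
  exact Nat.card_congr (Equiv.subtypeUnivEquiv fun x => one_smul G x)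

theorem unipotent_apply (ν : Fin n → ℕ) (g : GL (Fin n) F) :
    unipotentCharacterGL n F ν g = ∑ κ ∈ valid ν,
      ((Equiv.Perm.sign κ : ℤ) : ℂ) * fixedPointCharacter (parabolicGL n F (shift ν κ)) g := by
  classical
  unfold unipotentCharacterGL valid
  rw [← Finset.sum_filter]
  refine Finset.sum_congr (by ext; simp) fun κ _ => rfl

/-- **The degree formula.** -/
theorem degree_formula {q : ℕ} (hq : Fintype.card F = q) (ν : Fin n → ℕ) (hsum : ∑ i, ν i = n) :
    unipotentCharacterGL n F ν 1 * (q : ℂ) ^ (n * (n - 1) * (n - 2) / 6) *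
        ∏ i : Fin n, (qFact q (ν i + i.val) : ℂ) =
      (qFact q n : ℂ) * ∏ i : Fin n, ∏ j ∈ Finset.univ.filter (fun j : Fin n => i < j),
          (qInt q (ν j + j.val) - qInt q (ν i + i.val)) := by
  classical
  have hq0 : 0 < q := hq ▸ Fintype.card_pos
  set t : Fin n → ℂ := fun i => qInt q (ν i + i.val) with ht
  set M : Matrix (Fin n) (Fin n) ℂ := Matrix.of fun i j => desc q (ν i + i.val) j.val with hM
  have hdet : M.det = ∑ κ : Equiv.Perm (Fin n),
      ((Equiv.Perm.sign κ : ℤ) : ℂ) * ∏ i, desc q (ν i + i.val) (κ i).val := by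
    rw [← Matrix.det_transpose, Matrix.det_apply']
    rfl
  have hchi : unipotentCharacterGL n F ν 1 * ∏ i : Fin n, (qFact q (ν i + i.val) : ℂ) =
      (qFact q n : ℂ) * M.det := by
    rw [unipotent_apply, Finset.sum_mul, hdet, Finset.mul_sum,
      ← Finset.sum_subset (Finset.subset_univ (valid ν)) fun κ _ hκ => ?_]
    · refine Finset.sum_congr rfl fun κ hκ => ?_
      have hk : ∀ i, (κ i).val ≤ ν i + i.val := (Finset.mem_filter.1 hκ).2
      have hidx : (Nat.card (GL (Fin n) F ⧸ parabolicGL n F (shift ν κ)) : ℂ) *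
          ∏ i, (qFact q (shift ν κ i) : ℂ) = (qFact q n : ℂ) := by
        exact_mod_cast index_mul hq ((sum_shift ν hκ).trans hsum)
      rw [fixedPointCharacter_one, ← hidx, Finset.prod_congr rfl fun i _ => (desc_mul (q := q) (hk i)).symm,
        Finset.prod_mul_distrib]
      simp only [shift]
      ring
    · obtain ⟨i, hi⟩ : ∃ i : Fin n, ν i + i.val < (κ i).val := by
        by_contra hc
        push Not at hc
        exact hκ (Finset.mem_filter.2 ⟨Finset.mem_univ _, hc⟩)
      rw [Finset.prod_eq_zero (Finset.mem_univ i) (desc_eq_zero hi), mul_zero, mul_zero]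
  have hexp : n * (n - 1) * (n - 2) / 6 = ∑ j : Fin n, ∑ l ∈ Finset.range j.val, l := by
    rw [Fin.sum_univ_eq_sum_range (fun j => ∑ l ∈ Finset.range j, l) n, ← six_mul_sum_sum,
      Nat.mul_div_cancel_left _ (by norm_num)]
  have hvdm : M.det * (q : ℂ) ^ (n * (n - 1) * (n - 2) / 6) =
      ∏ i : Fin n, ∏ j ∈ Finset.univ.filter (fun j : Fin n => i < j), (t j - t i) := by
    have hfil : ∀ i : Fin n, Finset.univ.filter (fun j : Fin n => i < j) = Finset.Ioi i := fun i => by
      ext j; simp
    simp only [hfil]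
    rw [← Matrix.det_vandermonde, hexp, ← Finset.prod_pow_eq_pow_sum, mul_comm,
      ← Matrix.det_mul_row]
    rw [Matrix.det_eval_matrixOfPolynomials_eq_det_vandermonde t
      (fun j => ∏ l ∈ Finset.range j.val, (Polynomial.X - Polynomial.C (qInt q l))) (fun i => ?_)
      (fun i => monic_prod_of_monic _ _ fun l _ => monic_X_sub_C _)]
    · congr 1
      ext i j
      simp only [Matrix.of_apply, hM, eval_prod, eval_sub, eval_X, eval_C, ht]
      rw [← desc_pow, mul_comm]
    · rw [natDegree_prod_of_monic _ _ fun l _ => monic_X_sub_C _]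
      simp
  calc unipotentCharacterGL n F ν 1 * (q : ℂ) ^ (n * (n - 1) * (n - 2) / 6) *
        ∏ i : Fin n, (qFact q (ν i + i.val) : ℂ)
      = unipotentCharacterGL n F ν 1 * (∏ i : Fin n, (qFact q (ν i + i.val) : ℂ)) *
          (q : ℂ) ^ (n * (n - 1) * (n - 2) / 6) := by ring
    _ = _ := by rw [hchi, mul_assoc, hvdm]

theorem degree_re_pos {q : ℕ} (hq : Fintype.card F = q) (ν : Fin n → ℕ) (hm : Monotone ν)
    (hsum : ∑ i, ν i = n) : ∃ a b : ℕ, 0 < a ∧ 0 < b ∧ unipotentCharacterGL n F ν 1 * b = a := by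
  have hq0 : 0 < q := hq ▸ Fintype.card_pos
  refine ⟨qFact q n * ∏ i : Fin n, ∏ j ∈ Finset.univ.filter (fun j : Fin n => i < j),
      ((∑ l ∈ Finset.range (ν j + j.val), q ^ l) - (∑ l ∈ Finset.range (ν i + i.val), q ^ l)),
    q ^ (n * (n - 1) * (n - 2) / 6) * ∏ i : Fin n, qFact q (ν i + i.val), ?_, ?_, ?_⟩
  · refine Nat.mul_pos (qFact_pos hq0 n) (Finset.prod_pos fun i _ => Finset.prod_pos fun j hj => ?_)
    refine Nat.sub_pos_of_lt (qInt_strictMono hq0 ?_)
    have hij : i < j := (Finset.mem_filter.1 hj).2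
    have := hm hij.le
    have : i.val < j.val := hij
    omega
  · exact Nat.mul_pos (pow_pos hq0 _) (Finset.prod_pos fun i _ => qFact_pos hq0 _)
  · push_cast
    rw [← mul_assoc, degree_formula hq ν hsum]
    congr 1
    refine Finset.prod_congr rfl fun i _ => Finset.prod_congr rfl fun j hj => ?_
    have hij : i < j := (Finset.mem_filter.1 hj).2
    have hle : (∑ l ∈ Finset.range (ν i + i.val), q ^ l) ≤ ∑ l ∈ Finset.range (ν j + j.val), q ^ l := by
      refine (qInt_strictMono hq0).monotone ?_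
      have := hm hij.le
      have : i.val < j.val := hij
      omega
    rw [Nat.cast_sub hle]
    simp only [qInt]

end Cfsg.Agent.UnipotentGL
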