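import Mathlib
import Cfsg.Agent.Lib.UnipotentGL.Cauchy
import Cfsg.Agent.Lib.UnipotentGL.Degree
import Cfsg.Agent.Lib.UnipotentGL.GLFlags
import Cfsg.Agent.Lib.Characters.Induction

/-!
# Irreducibility of the partition-indexed characters
-/

set_option autoImplicit false

open scoped ComplexConjugate
open Cfsg.Lib.Characters

namespace Cfsg.Agent.UnipotentGL

theorem isCharacter_fixedPointCharacter {G : Type*} [Group G] [Fintype G] (H : Subgroup G) :
    IsCharacter G (fixedPointCharacter H) := by
  classical
  have hone : IsCharacter H (1 : H → ℂ) := by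
    refine ⟨1, Representation.trivial ℂ H (Fin 1 → ℂ), funext fun h => ?_⟩
    simp [Representation.character]
  convert isCharacter_indFun H hone using 1
  funext g
  have key : ∀ x : G, (extendByZero H (1 : H → ℂ)) (x⁻¹ * g * x) =
      if g • (x : G ⧸ H) = x then 1 else 0 := by
    intro x
    have : g • (x : G ⧸ H) = x ↔ x⁻¹ * g * x ∈ H := by
      rw [MulAction.Quotient.smul_mk, eq_comm, QuotientGroup.eq, smul_eq_mul, mul_assoc]
    by_cases h : x⁻¹ * g * x ∈ H
    · rw [extendByZero_mem _ h, if_pos (this.2 h)]; rfl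
    · rw [extendByZero_not_mem _ h, if_neg (this.not.2 h)]
  have hc : (Finset.univ.filter fun x : G => g • (x : G ⧸ H) = x).card =
      Nat.card H * Nat.card (MulAction.fixedBy (G ⧸ H) g) := by
    rw [← Nat.card_prod, ← Nat.card_eq_finsetCard]
    refine Nat.card_congr ((Equiv.subtypeEquivRight fun x => ?_).trans
      (QuotientGroup.preimageMkEquivSubgroupProdSet H (MulAction.fixedBy (G ⧸ H) g)))
    rw [Finset.mem_filter, and_iff_right (Finset.mem_univ x)]
    rfl
  unfold indFun fixedPointCharacter
  simp only [key, Finset.sum_boole, hc, Nat.cast_mul]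
  rw [← mul_assoc, inv_mul_cancel₀ (Nat.cast_ne_zero.2 Nat.card_pos.ne'), one_mul]

theorem conj_fixedPointCharacter {G : Type*} [Group G] (H : Subgroup G) (g : G) :
    conj (fixedPointCharacter H g) = fixedPointCharacter H g := map_natCast _ _

variable {F : Type*} [Field F] [Fintype F] {n : ℕ}

theorem isGeneralized_sum' {G ι : Type*} [Group G] [Fintype G] (s : Finset ι) (f : ι → G → ℂ)
    (h : ∀ i ∈ s, IsGeneralizedCharacter G (f i)) : IsGeneralizedCharacter G (∑ i ∈ s, f i) := by
  classical
  induction s using Finset.induction with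
  | empty =>
    exact isGeneralized_of_isCharacter (by
      rw [Finset.sum_empty]
      simpa using isCharacter_sum (∅ : Finset ι) f (by simp))
  | insert a s ha ih =>
    rw [Finset.sum_insert ha]
    exact isGeneralized_add (h a (Finset.mem_insert_self a s))
      (ih fun i hi => h i (Finset.mem_insert_of_mem hi))

/-- **Irreducibility.** -/
theorem unipotent_irreducible (ν : Fin n → ℕ) (hm : Monotone ν) (hsum : ∑ i, ν i = n) :
    IsIrrCharacter (GL (Fin n) F) (unipotentCharacterGL n F ν) := by
  classical
  set π : Equiv.Perm (Fin n) → (GL (Fin n) F) → ℂ :=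
    fun κ => fixedPointCharacter (parabolicGL n F (shift ν κ)) with hπ
  have hχ : unipotentCharacterGL n F ν =
      ∑ κ ∈ valid ν, ((Equiv.Perm.sign κ : ℤ) : ℂ) • π κ := by
    funext g
    rw [unipotent_apply, Finset.sum_apply]
    exact Finset.sum_congr rfl fun κ _ => by simp [hπ]
  have hgen : IsGeneralizedCharacter (GL (Fin n) F) (unipotentCharacterGL n F ν) := by
    rw [hχ]
    exact isGeneralized_sum' _ _ fun κ _ => isGeneralized_zsmul
      (isGeneralized_of_isCharacter (isCharacter_fixedPointCharacter _)) _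
  have hconj : ∀ g, conj (unipotentCharacterGL n F ν g) = unipotentCharacterGL n F ν g := fun g => by
    rw [unipotent_apply, map_sum]
    exact Finset.sum_congr rfl fun κ _ => by
      rw [map_mul, conj_fixedPointCharacter, map_intCast]
  have hnorm : classInner (unipotentCharacterGL n F ν) (unipotentCharacterGL n F ν) = 1 := by
    unfold classInner
    rw [Finset.sum_congr rfl fun g _ => by rw [hconj g]]
    simp only [unipotent_apply, Finset.sum_mul_sum]
    rw [Finset.sum_comm]
    simp_rw [Finset.sum_comm (s := (Finset.univ : Finset (GL (Fin n) F)))]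
    have e : ∀ κ ∈ valid ν, ∀ κ' ∈ valid ν,
        ∑ g : (GL (Fin n) F), ((Equiv.Perm.sign κ : ℤ) : ℂ) * fixedPointCharacter (parabolicGL n F (shift ν κ)) g *
          (((Equiv.Perm.sign κ' : ℤ) : ℂ) * fixedPointCharacter (parabolicGL n F (shift ν κ')) g) =
        (Nat.card (GL (Fin n) F) : ℂ) * (((Equiv.Perm.sign κ : ℤ) : ℂ) * ((Equiv.Perm.sign κ' : ℤ) : ℂ) *
          (Nat.card (Margins (shift ν κ) (shift ν κ')) : ℂ)) := by
      intro κ hκ κ' hκ'
      have := gl_inner (F := F) ((sum_shift ν hκ).trans hsum) ((sum_shift ν hκ').trans hsum)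
      calc _ = ((Equiv.Perm.sign κ : ℤ) : ℂ) * ((Equiv.Perm.sign κ' : ℤ) : ℂ) *
            ∑ g : (GL (Fin n) F), fixedPointCharacter (parabolicGL n F (shift ν κ)) g *
              fixedPointCharacter (parabolicGL n F (shift ν κ')) g := by
              rw [Finset.mul_sum]
              exact Finset.sum_congr rfl fun g _ => by ring
        _ = _ := by rw [this]; ring
    rw [Finset.sum_congr rfl fun κ hκ => Finset.sum_congr rfl fun κ' hκ' => e κ hκ κ' hκ']
    simp only [← Finset.mul_sum]
    rw [← mul_assoc, inv_mul_cancel₀ (Nat.cast_ne_zero.2 Nat.card_pos.ne'), one_mul]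
    exact_mod_cast sum_sign_card_margins hm
  rcases isGeneralized_norm_one hgen hnorm with h | h
  · exact h
  · exfalso
    obtain ⟨a, b, ha, hb, hab⟩ := degree_re_pos (F := F) (q := Fintype.card F) rfl ν hm hsum
    obtain ⟨m, ρ, -, hρ⟩ := h
    have h1 := congrFun hρ 1
    rw [Representation.char_one, Pi.neg_apply] at h1
    rw [show unipotentCharacterGL n F ν 1 = -((Module.finrank ℂ (Fin m → ℂ) : ℂ)) by
      rw [h1, neg_neg]] at hab
    have h2 := congrArg Complex.re hab
    simp at h2
    have : (0 : ℝ) < a := by exact_mod_cast ha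
    have : (0 : ℝ) ≤ (m : ℝ) * b := by positivity
    linarith

end Cfsg.Agent.UnipotentGL
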